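-- Certificate checks for Y5B.
import Cfsg.Agent.Lib.Compute.TC.Y5B.Data
set_option autoImplicit false
set_option maxRecDepth 1000000

open Cfsg.Agent.Lib.Compute.ToddCoxeterCore Cfsg.Agent.Lib.Compute.ToddCoxeterPresented Cfsg.Agent.Lib.Compute.TCFast

namespace Cfsg.Agent.Lib.Compute.TC.Y5B

theorem keys3 : allFrom cfg.chkKey (nat_lit 66000) (nat_lit 197999) = true := by decide +kernel

end Cfsg.Agent.Lib.Compute.TC.Y5B
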